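import Cfsg.Agent.XL.Conv
import Cfsg.Agent.Leech.Setting
import Cfsg.Agent.TT.LargeT
import Cfsg.Agent.Cl.OLow

/-! # From the numerical large extraspecial hypothesis to the statements -/

set_option autoImplicit false

namespace Cfsg.Agent.CoS

open Cfsg Cfsg.Agent.GT Cfsg.Agent.TT Cfsg.Agent.Cl.Orth Cfsg.Agent.XL Subgroup

/-- the conclusion of the statements -/
def Concl (G : Type*) [Group G] (n : ℕ) (L : Type*) [Group L] : Prop :=
  ∃ z : G, orderOf z = 2 ∧ ∃ (Q : Subgroup C1[z]) (_ : Q.Normal),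
    generalizedFittingSubgroup C1[z] = Q ∧ IsExtraspecial 2 Q ∧ Nat.card Q = 2 ^ n ∧
    Nonempty (C1[z] ⧸ Q ≃* L) ∧
    ∃ g : G, (∃ hq : g * z * g⁻¹ ∈ C1[z], (⟨g * z * g⁻¹, hq⟩ : C1[z]) ∈ Q) ∧ g * z * g⁻¹ ≠ z

variable {V : Type*} [AddCommGroup V] [Module (ZMod 2) V] {q : QuadraticForm (ZMod 2) V} {e f : V}
  {G : Type*} [Group G] [Finite G] {Q : Subgroup G} {z g : G} {π : G → V} {w N : ℕ}

theorem exists_theta (h : XC q Q z π) : ∃ θ : C1[z] →* EG q, Function.Surjective θ ∧ kr θ = Q ∧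
    ∀ c : C1[z], Ac Q z π (c : G) (θ c).1 := by
  obtain ⟨ρ, hρ⟩ := h.toXQ.exists_rho
  refine ⟨ρ.codRestrict (EG q) fun c => h.inE _ _ (hρ c), fun y => ?_, ?_, hρ⟩
  · obtain ⟨c, hc⟩ := h.onto y.1 y.2
    exact ⟨⟨c, hc.1⟩, Subtype.ext (h.toXQ.ac_unique (hρ _) hc)⟩
  · rw [kr_eq_map, MonoidHom.ker_codRestrict, h.toXQ.ker_rho hρ,
      map_subgroupOf_eq_of_le h.toES.le_cent1]

theorem setting (h : LT Q z g w N) (hc : XC q Q z π) [IsSimpleGroup (EG q)]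
    (h3 : 3 ∣ Nat.card (EG q)) : ∃ _ : (Q.subgroupOf C1[z]).Normal,
      IsExtraspecialCentralizerSetting z (Q.subgroupOf C1[z]) w ∧
        Nonempty (C1[z] ⧸ Q.subgroupOf C1[z] ≃* EG q) := by
  obtain ⟨θ, h1, h2, -⟩ := exists_theta hc
  obtain ⟨hn, a, φ, -⟩ := Leech.setting_of h.toES h.cQ' θ h1 h2
    (fun N hN hp => hN.eq_bot_or_eq_top.resolve_right fun e => by
      haveI := hc.toXQ.finite_V
      haveI : Finite (OG q) := finite_OG
      obtain ⟨n, hn⟩ := IsPGroup.iff_card.1 hp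
      rw [e, card_top] at hn
      rw [hn] at h3
      exact absurd (Nat.prime_three.dvd_of_dvd_pow h3) (by norm_num))
    (fun N _ hN => eq_bot_iff.2 (hN.trans (im_eq_bot_of_le (h2 ▸ h.cQ)).le)) ⟨g, h.sQ, h.sne⟩
  exact ⟨hn, a, ⟨φ⟩⟩

theorem concl (h : LT Q z g w N) (hc : XC q Q z π) [IsSimpleGroup (EG q)]
    (h3 : 3 ∣ Nat.card (EG q)) {L : Type*} [Group L] (φ : L ≃* EG q) : Concl G (2 * w + 1) L :=
  let ⟨hn, a, ⟨ψ⟩⟩ := setting h hc h3
  ⟨z, a.1, _, hn, a.2.1, a.2.2.1, a.2.2.2.1, ⟨ψ.trans φ.symm⟩, a.2.2.2.2⟩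

theorem le_closure (h : LT Q z g w N) (hp : XP q e f (dt Q z g π))
    (hV : 3 ≤ Module.finrank (ZMod 2) V) : Q ≤ normalClosure {z} := by
  have hq : XQ q Q z π := hp.xq
  have hy : Hyp q e f := hp.xt.hyp
  have hz : z ∈ normalClosure {z} := subset_normalClosure rfl
  have hn : (normalClosure {z}).Normal := inferInstance
  let P : V → Prop := fun v => ∃ x ∈ Q, x ∈ normalClosure {z} ∧ π x = v
  have Pa : ∀ v v', P v → P v' → P (v + v') := by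
    rintro _ _ ⟨x, a, b, rfl⟩ ⟨y, c, d, rfl⟩
    exact ⟨x * y, mul_mem a c, mul_mem b d, hq.mul _ a _ c⟩
  have Ps : ∀ (c : ZMod 2) v, P v → P (c • v) := fun c v a => by
    by_cases hc : c = 1
    · rwa [hc, one_smul]
    · rw [z2_ne1 hc, zero_smul]; exact ⟨1, one_mem _, one_mem _, hq.π1⟩
  have Pe : P e := ⟨_, h.sQ, hn.conj_mem _ hz g, hp.xt.πs⟩
  have Pg : ∀ η ∈ EG q, ∀ v, P v → P (η.1 v) := by
    rintro η hη _ ⟨x, a, b, rfl⟩
    obtain ⟨c, hc⟩ := hp.xc.onto η hη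
    exact ⟨_, hq.conjQ hc.1 a, hn.conj_mem _ b c, hc.2 x a⟩
  have Pc : ∀ v v', P v → P (v + v') → P v' := fun v v' a b => by
    have := Pa _ _ a b
    rwa [← add_assoc, vadd_self, zero_add] at this
  obtain ⟨u, u1, u2, u3⟩ := hy.exists_nonsing hq.bn.rad0 hV
  have P0 : P (u + f) := by
    have := Pg _ (eich_mem_EG hy.hf u2) e Pe
    rw [eich_app2, u1, hy.hef, z2_ne u3, zero_smul, add_zero, one_smul, mul_one, one_smul,
      add_assoc] at this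
    exact Pc _ _ Pe this
  have P1 : ∀ v, B q e v = 0 → P v := fun v hv => by
    have := Pg _ (eich_mem_EG hy.he hv) _ P0
    have b : B q (u + f) e = 1 := by rw [map_add, LinearMap.add_apply, B_comm q u, u1, hy.hfe, zero_add]
    rw [eich_app2, b, one_smul, add_right_comm _ v] at this
    exact Pc _ _ (Pa _ _ (Pa _ _ P0 (Ps _ _ Pe)) (Ps _ _ Pe)) this
  have Pf : P f := Pc _ _ (P1 u u1) P0
  intro x hx
  have : P (π x) := by
    have := Pa _ _ (P1 (π x + B q e (π x) • f) (by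
      rw [map_add, map_smul, hy.hef, smul_eq_mul, mul_one, CharTwo.add_self_eq_zero]))
      (Ps (B q e (π x)) _ Pf)
    rwa [add_assoc, vadd_self, add_zero] at this
  obtain ⟨y, a, b, c⟩ := this
  rcases (hq.eq_iff a hx).1 c with rfl | rfl
  exacts [b, mul_mem b hz]

theorem simple (h : LT Q z g w N) (hw : 2 ≤ w) (hp : XP q e f (dt Q z g π)) [IsSimpleGroup (EG q)]
    (h3 : 3 ∣ Nat.card (EG q)) (hV : 3 ≤ Module.finrank (ZMod 2) V) :
    IsSimpleGroup G ∧ ¬ IsMulCommutative G := by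
  have hq : XQ q Q z π := hp.xq
  have hy : Hyp q e f := hp.xt.hyp
  obtain ⟨hn, a, -⟩ := setting h hp.xc h3
  refine ⟨simple_of_large h.toLQ (by rw [← map_subtype_fstar, a.2.1,
    map_subgroupOf_eq_of_le h.toES.le_cent1]) (h.toLQ.large_of_conj h.sQ h.sne
      (h.toLQ.mem_conj' h.sQ h.sne (eight_lt_of_width hw h.cQ'))) fun c hc => ?_, fun hc => ?_⟩
  · obtain ⟨θ, h1, h2, h4⟩ := exists_theta hp.xc
    have hQ := le_closure h hp hV
    have hn : (normalClosure {z}).Normal := inferInstance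
    have b : (im θ (normalClosure {z})).Normal := (hn.subgroupOf _).map θ h1
    rcases b.eq_bot_or_eq_top with b | b
    · obtain ⟨u, u1, u2, u3⟩ := hy.exists_nonsing hq.bn.rad0 hV
      obtain ⟨y, ⟨⟨x, hx, rfl⟩, y2⟩, y3⟩ := hp.xt.eich_onto hp.card u u1
      have := mem_im_of_mem (f := θ) y2 (hn.conj_mem _ (hQ hx) g)
      rw [b, mem_bot] at this
      have c := hq.ac_unique (h4 ⟨_, y2⟩) y3
      rw [this] at c
      exact absurd (by rw [← c, one_smul]; rfl) (hy.eich_not_scalar u1 u2 u3 1)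
    · have : θ ⟨c, hc⟩ ∈ im θ (normalClosure {z} ⊓ C1[z]) := by rw [im_inf_dom, b]; trivial
      rw [mem_im_iff_mem_sup hc inf_le_right, h2] at this
      exact sup_le inf_le_left hQ this
  · obtain ⟨x, -, y, -, b⟩ := h.nonab
    exact b (hc.is_comm.comm x y)

theorem simple_of_quot (hB : BNondeg q) (h : Hyp q e f) (hV : 3 ≤ Module.finrank (ZMod 2) V)
    (hs : IsSimpleGroup (EG q ⧸ center (EG q))) : IsSimpleGroup (EG q) :=
  (Cl.quotCenterEquivOfBot (card_eq_one.1 (h.card_center_eq_one hB hV (Or.inr rfl)))).symm.isSimpleGroup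

theorem simple8 : IsSimpleGroup (EG (qP 4)) :=
  simple_of_quot (bnP 4) hyp8 (by rw [rkP]; norm_num)
    (simple_HS bnondeg_zero (by norm_num) (by rw [Module.finrank_zero_of_subsingleton]; simp))

theorem simple6 : IsSimpleGroup (EG (qM 2)) :=
  simple_of_quot (bnM 2) hyp6 (by rw [rkM]; norm_num)
    (simple_HS aniso_one_one.bnondeg (by norm_num) (by simp))

theorem simple5 : IsSimpleGroup (EG (qM 1)) := by
  haveI : Fact (Nat.Prime 2) := ⟨Nat.prime_two⟩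
  haveI := Fintype.ofFinite (GaloisField 2 2)
  have hc : Nat.card (GaloisField 2 2) = 4 := GaloisField.card 2 2 (by norm_num)
  obtain ⟨φ⟩ := pomega_four_minus_equiv (F := ZMod 2) (K := GaloisField 2 2)
    (by rw [← Nat.card_eq_fintype_card, hc]; simp) aniso_one_one
  have := Matrix.ProjectiveSpecialLinearGroup.rank_two_simple (F := GaloisField 2 2) hc.ge
  exact simple_of_quot (bnM 1) hyp5 (by rw [rkM]; norm_num)
    ((pomegaEquiv (oMinus 1 1 1) com5).symm.trans φ).isSimpleGroup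

theorem concl8 (h : LT Q z g 4 174182400) :
    Concl G 9 (Omega (ZMod 2) (quadFormPlus 4 (ZMod 2))) :=
  haveI := simple8
  let ⟨_, hp⟩ := h.xp8
  concl h hp.xc (by rw [cardE8]; norm_num) om8

theorem concl6 (h : LT Q z g 3 25920) : IsSimpleGroup G ∧ ¬ IsMulCommutative G ∧
    Concl G 7 (Omega (ZMod 2) (quadFormMinus 2 (ZMod 2) 1 1)) :=
  haveI := simple6
  let ⟨_, hp⟩ := h.xp6
  have a := simple h (by norm_num) hp (by rw [cardE6]; norm_num) (by rw [rkM]; norm_num)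
  ⟨a.1, a.2, concl h hp.xc (by rw [cardE6]; norm_num) om6⟩

theorem concl5 (h : LT Q z g 2 60) : IsSimpleGroup G ∧ ¬ IsMulCommutative G ∧
    Concl G 5 (Omega (ZMod 2) (quadFormMinus 1 (ZMod 2) 1 1)) :=
  haveI := simple5
  let ⟨_, hp⟩ := h.xp5
  have a := simple h (by norm_num) hp (by rw [cardE5]; norm_num) (by rw [rkM]; norm_num)
  ⟨a.1, a.2, concl h hp.xc (by rw [cardE5]; norm_num) om5⟩

/-- passing to a section -/
theorem lt_quot {S : Type*} [Group S] {M K : Subgroup G} {k : G} (ρ : M →* S)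
    (hρ : Function.Surjective ρ) (hE : ES K z) (hK : K ≤ M) (h0 : K ⊓ kr ρ = ⊥)
    (h1 : ∀ m, m * z * m⁻¹ * z⁻¹ ∈ kr ρ → m ∈ C1[z]) (h2 : kr ρ ≤ C1[z])
    (h3 : M ⊓ C1[z] ≤ N[K]) (h4 : M ⊓ C[K] ≤ K ⊔ kr ρ) (c1 : Nat.card K = 2 ^ (2 * w + 1))
    (c2 : Nat.card ↥(M ⊓ C1[z]) = Nat.card (kr ρ) * (Nat.card K * N)) (hg : g ∈ M) (hk : k ∈ K)
    (hkz : k ≠ z) (h5 : g * z * g⁻¹ * k⁻¹ ∈ kr ρ) :
    LT (im ρ K) (ρ ⟨z, hK hE.mem⟩) (ρ ⟨g, hg⟩) w N := by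
  have hz := hK hE.mem
  have inj : ∀ x (hx : x ∈ K), ρ ⟨x, hK hx⟩ = 1 → x = 1 := fun x hx e =>
    mem_bot.1 (h0 ▸ mem_inf.2 ⟨hx, (mem_kr' _).2 e⟩)
  have hC : C1[ρ ⟨z, hz⟩] = im ρ (M ⊓ C1[z]) := by
    ext s
    constructor
    · intro hs
      obtain ⟨m, rfl⟩ := hρ s
      refine mem_im_of_mem m.2 ⟨m.2, h1 m (mem_kr.2 ⟨(m * ⟨z, hz⟩ * m⁻¹ * ⟨z, hz⟩⁻¹).2, ?_⟩)⟩
      change ρ (m * ⟨z, hz⟩ * m⁻¹ * ⟨z, hz⟩⁻¹) = 1
      rw [map_mul, map_mul, map_mul, map_inv, map_inv, mem_cent1.1 hs]; group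
    · rintro ⟨m, hm, rfl⟩
      rw [mem_cent1, ← map_mul, ← map_mul]
      exact congrArg ρ (Subtype.ext (mem_cent1.1 hm.2))
  have cK := card_im_of_inf_eq_bot hK h0
  have e5 : ρ ⟨g, hg⟩ * ρ ⟨z, hz⟩ * (ρ ⟨g, hg⟩)⁻¹ = ρ ⟨k, hK hk⟩ := by
    rw [← mul_inv_eq_one, ← map_inv, ← map_inv, ← map_mul, ← map_mul, ← map_mul]
    exact (mem_kr' _).1 h5
  have hE' : ES (im ρ K) (ρ ⟨z, hz⟩) :=
    (hE.subgroupOf hK).map ρ fun x hx e => Subtype.ext (inj x hx e)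
  refine ⟨⟨hE', fun s hs => ?_, hC ▸ im_norm h3⟩, cK.trans c1, ?_, e5 ▸ mem_im_of_mem _ hk,
    fun e => hkz ?_⟩
  · obtain ⟨m, hm, a, rfl⟩ := mem_im.1 (hC ▸ mem_cent1.2 (hs _ hE'.mem).symm)
    refine (mem_im_iff_mem_sup hm hK).2 (h4 ⟨hm, fun x hx => ?_⟩)
    have b : m * x * m⁻¹ ∈ K := (mem_normalizer_iff.1 (h3 a) x).1 hx
    have := inj _ (mul_mem b (inv_mem hx)) (by
      change ρ (⟨m, hm⟩ * ⟨x, hK hx⟩ * ⟨m, hm⟩⁻¹ * ⟨x, hK hx⟩⁻¹) = 1
      rw [map_mul, map_mul, map_mul, map_inv, map_inv, ← hs _ (mem_im_of_mem (hK hx) hx)]; group)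
    rw [mul_inv_eq_one, mul_inv_eq_iff_eq_mul] at this
    exact this.symm
  · have := card_eq_card_kr_mul (f := ρ) (H := M ⊓ C1[z]) inf_le_left (le_inf kr_le h2)
    rw [c2, ← hC] at this
    rw [cK]
    exact (Nat.eq_of_mul_eq_mul_left Nat.card_pos this).symm
  · rw [e5, ← mul_inv_eq_one, ← map_inv, ← map_mul] at e
    exact mul_inv_eq_one.1 (inj _ (mul_mem hk (inv_mem hE.mem)) e)

end Cfsg.Agent.CoS
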