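import Cfsg.Agent.CoS.Lev

/-! # The large extraspecial subgroup of the first Conway group -/

set_option autoImplicit false

namespace Cfsg.Agent.CoS

open Cfsg.Spor Cfsg.Agent.GT Subgroup Cfsg.Agent.M24 Cfsg.Agent.Leech
open Cfsg.Agent.XL (LT)

/-- a coordinate permutation -/
def gC : ℕ := nat_lit 0xe008566efff72ee3f9501fee6aebb73e6e7f590f261215867fece72fdee5411fcc0149000000120008100007a400048e000030000c64000a5e000110000f02000050000090000001
/-- a sign change on an octad -/
def kC : ℕ := nat_lit 0xe924f5400a0e200f2810009108030b0400c1020091010f020080c10040c100292e001091000800000400000200000100000081000041000020000011000008000004000002000001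

theorem lt_Co1 : ∃ (Q : Subgroup Co1) (z g : Co1), LT Q z g 4 174182400 := by
  obtain ⟨g, hg⟩ : ∃ g, mat g = gC := exists_wmat (w := [nat_lit 0xaa92293e711b40e0ae8c2dec8818e4000000]) (by decide +kernel)
  obtain ⟨k, hk, e⟩ := tab.has (s := kC) (by decide +kernel)
  have h : C1[(1 : Co0)] = ⊤ := eq_top_iff.2 fun x _ => mem_cent1.2 (by rw [mul_one, one_mul])
  refine core (a := 1) (w := 4) pt pt_surj (by rw [orderOf_one]; decide) h.symm
    (by rw [kr_pt, zpowers_one_eq_bot, bot_sup_eq]) (one_mem _) (by rw [h, inf_top_eq, card_Q0]; rfl)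
    (by rw [h, top_inf_eq, card_CZ, orderOf_one]; rfl) (fun d _ hd => ⟨1, one_mem _, ?_⟩)
    (g := g) (k := k) (h ▸ mem_top _) ⟨hk, h ▸ mem_top _⟩
    (fun a => absurd (e.symm.trans ((congrArg mat a).trans mat_one)) (by decide +kernel))
    (fun a => absurd (e.symm.trans ((congrArg mat a).trans mat_zz)) (by decide +kernel))
    (by rw [mat_mulf, mat_mulf, hg, e, mat_zz]; decide +kernel)
  rw [h, inf_top_eq] at hd
  rw [inv_one, one_mul]
  exact mem_of_triv fun y hy => Or.inl (by rw [← hd y hy, mul_inv_cancel_right])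

end Cfsg.Agent.CoS
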