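import Cfsg.Agent.CoS.Z2
import Cfsg.Agent.CoS.Abs

/-! # Certificates for centralizers of elements of odd order commuting with the involution -/

set_option autoImplicit false

namespace Cfsg.Agent.CoS

open Cfsg.Spor Cfsg.Agent.GT Cfsg.Agent.TT Subgroup Cfsg.Agent.M24 Cfsg.Agent.Leech MulAction
open Cfsg.Agent.XL (LT)

/-- the projection, defined on the top subgroup -/
noncomputable def pt : (⊤ : Subgroup Co0) →* Co1 := pj.comp (⊤ : Subgroup Co0).subtype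

theorem pt_surj : Function.Surjective pt := fun x => let ⟨g, e⟩ := pj_surj x; ⟨⟨g, trivial⟩, e⟩

theorem kr_pt : kr pt = center Co0 := Subgroup.ext fun g => by
  rw [mem_kr' (mem_top g), Leech.mem_center_iff, ← pj_eq_one]; rfl

theorem inf_center {K : Subgroup Co0} (h : ng ∉ K) : K ⊓ center Co0 = ⊥ :=
  eq_bot_iff.2 fun _ hx => (Leech.mem_center_iff.1 hx.2).resolve_right fun e => h (e ▸ hx.1)

theorem card_sup_center {K : Subgroup Co0} (h : ng ∉ K) :
    Nat.card ↥(K ⊔ center Co0) = Nat.card K * 2 := by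
  have h1 := card_eq_card_kr_mul (f := pt) (H := K ⊔ kr pt) le_top le_sup_right
  rw [im_sup_kr le_top, card_im_of_inf_eq_bot le_top (by rw [kr_pt]; exact inf_center h),
    kr_pt, card_center] at h1
  rw [h1, mul_comm]

theorem mem_sup_center {K : Subgroup Co0} {x : Co0} : x ∈ K ⊔ center Co0 ↔ x ∈ K ∨ ng * x ∈ K := by
  rw [mem_sup_of_normal_right]
  constructor
  · rintro ⟨y, hy, c, hc, rfl⟩
    rcases Leech.mem_center_iff.1 hc with rfl | rfl
    · exact Or.inl (by rwa [mul_one])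
    · exact Or.inr (by rwa [ng_comm, ← mul_assoc, ng_mul_self, one_mul])
  · rintro (h | h)
    · exact ⟨x, h, 1, one_mem _, mul_one _⟩
    · exact ⟨_, h, ng, ng_mem_center, by rw [← ng_comm, mul_assoc, ng_mul_self, mul_one]⟩

variable {a : Co0}

theorem eq_one_of_odd (ha : Odd (orderOf a)) {x : Co0} (hx : x ∈ zpowers a) (h : x ^ 2 ^ 2 = 1) :
    x = 1 :=
  orderOf_eq_one_iff.1 (Nat.eq_one_of_dvd_coprimes ((Nat.coprime_two_left.2 ha).pow_left 2)
    (orderOf_dvd_of_pow_eq_one h) (orderOf_dvd_of_mem_zpowers hx))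

theorem ng_sq (x : Co0) : (ng * x) ^ 2 ^ 2 = x ^ 2 ^ 2 := by
  rw [(show Commute ng x from (ng_comm x).symm).mul_pow, show 2 ^ 2 = 2 * 2 from rfl, pow_mul ng, sq ng,
    ng_mul_self, one_pow, one_mul]

theorem mem_AZ (ha : Odd (orderOf a)) {x : Co0} (hx : x ∈ zpowers a ⊔ center Co0)
    (h : x ^ 2 ^ 2 = 1) : x = 1 ∨ x = ng :=
  (mem_sup_center.1 hx).imp (fun hx => eq_one_of_odd ha hx h) fun hx => by
    have := eq_one_of_odd ha hx ((ng_sq x).trans h)
    rw [← one_mul x, ← ng_mul_self, mul_assoc, this, mul_one]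

theorem zp_le_cent {x : Co0} (h : a ∈ C1[x]) : zpowers a ≤ C1[x] := zpowers_le.2 h

theorem core {S : Type*} [Group S] {M : Subgroup Co0} (ρ : M →* S) (hρ : Function.Surjective ρ)
    (ha : Odd (orderOf a)) (hM : M = C1[a]) (hk : kr ρ = zpowers a ⊔ center Co0)
    (haz : a ∈ C1[zz]) {w N : ℕ} (cK : Nat.card ↥(Q0 ⊓ C1[a]) = 2 ^ (2 * w + 1))
    (cD : Nat.card ↥(C1[a] ⊓ C1[zz]) = orderOf a * 2 * (2 ^ (2 * w + 1) * N))
    (hC : ∀ d ∈ C1[a], d ∈ C[Q0 ⊓ C1[a]] → ∃ c ∈ zpowers a, c⁻¹ * d ∈ Q0 ∨ ng * (c⁻¹ * d) ∈ Q0)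
    {g k : Co0} (hg : g ∈ C1[a]) (h1 : k ∈ Q0 ⊓ C1[a]) (h2 : k ≠ 1) (h3 : k ≠ zz)
    (h4 : mat (g * zz) = mat (k * g)) : ∃ (Q : Subgroup S) (z g : S), LT Q z g w N := by
  subst hM
  have hE := es_cent_odd es_Q0 ha (C_le_N haz) h1 h2 h3
  have hz : zpowers a ⊔ center Co0 ≤ C1[zz] := sup_le (zp_le_cent haz) (center_le_centralizer _)
  have hng : ng ∈ C1[a] := center_le_centralizer _ ng_mem_center
  refine ⟨_, _, _, lt_quot ρ hρ hE inf_le_right (eq_bot_iff.2 fun x hx => ?_) (fun m hm => ?_)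
    (hk ▸ hz) (fun d hd => mem_normalizer_of_conj fun x hx => ⟨conj_Q0 hd.2 hx.1,
      C1[a].mul_mem (C1[a].mul_mem hd.1 hx.2) (C1[a].inv_mem hd.1)⟩) (fun d hd => ?_) cK ?_ hg h1 h3 ?_⟩
  · exact (mem_AZ ha (hk ▸ hx.2) (es_Q0.pow_four hx.1.1)).resolve_right fun e => ng_Q0 (e ▸ hx.1.1)
  · rw [hk] at hm
    have e := mem_cent1.1 (hz hm)
    have : (m * zz * m⁻¹ * zz⁻¹) ^ 2 ^ 2 = 1 := by
      rw [show 2 ^ 2 = 2 * 2 from rfl, pow_mul, sq (_ * _), es_Q0.inv] at *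
      rw [mul_assoc _ zz, ← e, mul_assoc _ zz zz, zz_zz, mul_one,
        show m * zz * m⁻¹ * (m * zz * m⁻¹) = m * (zz * zz) * m⁻¹ by group, zz_zz]
      group
    rcases mem_AZ ha hm this with e | e <;> rw [mul_inv_eq_iff_eq_mul] at e
    · rw [one_mul, mul_inv_eq_iff_eq_mul] at e; exact mem_cent1.2 e
    · exact absurd e (not_conj m)
  · obtain ⟨c, hc, e⟩ := hC d hd.1 hd.2
    have b : c⁻¹ * d ∈ C1[a] := mul_mem (inv_mem (zp_le_cent (mem_cent1.2 rfl) hc)) hd.1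
    rw [hk, ← mul_inv_cancel_left c d]
    refine mul_mem (mem_sup_right (mem_sup_left hc)) ?_
    exact (sup_le_sup_left le_sup_right (Q0 ⊓ C1[a]) : _ ≤ _)
      (mem_sup_center.2 (e.imp (fun e => ⟨e, b⟩) fun e => ⟨e, mul_mem hng b⟩))
  · rw [cD, cK, hk, card_sup_center fun h => ng_ne_one (eq_one_of_odd ha h (by
      rw [← mul_one ng, ng_sq, one_pow])), Nat.card_zpowers]
  · rw [mat_eq, ← mul_inv_eq_one, ← map_inv, ← map_mul, pj_eq_one] at h4
    rw [hk]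
    exact mem_sup_right (Leech.mem_center_iff.2 (by rwa [mul_inv_rev, ← mul_assoc] at h4))

/-! ### Stabilizer chains on the singular classes -/

/-- pointwise stabilizer of a list of classes -/
def Fx (D : Subgroup Co0) (b : List ℕ) : Subgroup Co0 where
  carrier := {g | g ∈ D ∧ ∀ x : Lt, cdx x ∈ b → g • x = x}
  one_mem' := ⟨one_mem _, fun _ _ => one_smul _ _⟩
  mul_mem' h h' := ⟨mul_mem h.1 h'.1, fun x hx => by rw [mul_smul, h'.2 x hx, h.2 x hx]⟩
  inv_mem' h := ⟨inv_mem h.1, fun x hx => by rw [inv_smul_eq_iff, h.2 x hx]⟩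

theorem Fx_nil (D : Subgroup Co0) : Fx D [] = D :=
  Subgroup.ext fun _ => ⟨fun h => h.1, fun h => ⟨h, fun _ h => nomatch h⟩⟩

/-- all members of the list are powers of `A` -/
noncomputable def pwChk (A : ℕ) (As : List ℕ) : Bool :=
  List.rec (motive := fun _ => Bool) true (fun x r ih =>
    band (bor (Nat.beq x onem) (lany r fun y => Nat.beq x (mulf A y))) ih) As

theorem pw_sound {A : ℕ} (hA : mat a = A) {As : List ℕ} (h : pwChk A As = true) :
    ∀ x ∈ As, ∃ c ∈ zpowers a, mat c = x := by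
  induction As with
  | nil => exact fun _ h => nomatch h
  | cons x r ih =>
    have h' : band (bor (Nat.beq x onem) (lany r fun y => Nat.beq x (mulf A y))) (pwChk A r) = true := h
    simp only [band_eq, bor_eq, Bool.and_eq_true, Bool.or_eq_true, Nat.beq_eq, lany_iff] at h'
    refine List.forall_mem_cons.2 ⟨?_, ih h'.2⟩
    rcases h'.1 with rfl | ⟨y, hy, rfl⟩
    · exact ⟨1, one_mem _, mat_one⟩
    · obtain ⟨c, hc, rfl⟩ := ih h'.2 y hy
      exact ⟨a * c, mul_mem (mem_zpowers a) hc, by rw [mat_mulf, hA]⟩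

/-- the members of `fs` are images of members of `b` -/
noncomputable def fsChk (As b fs : List ℕ) : Bool :=
  lall fs fun f => lany b fun x => band (t4.has x) (lany As fun A => Nat.beq (apm A x) f)

theorem key_ex {x : ℕ} (h : t4.has x = true) : ∃ y, cdx y = x :=
  ⟨_, cdx_unx (T.srt_bound t4_srt x (T.has_sound h)).2⟩

theorem fs_sound {As b fs : List ℕ} (hA : ∀ x ∈ As, ∃ c ∈ zpowers a, mat c = x)
    (h : fsChk As b fs = true) {g : Co0} (hg : g ∈ Fx (C1[a] ⊓ C1[zz]) b) :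
    ∀ f ∈ fs, ∃ y, cdx y = f ∧ g • y = y := fun f hf => by
  simp only [fsChk, lall_iff, lany_iff, band_eq, Bool.and_eq_true, Nat.beq_eq] at h
  obtain ⟨x, hx, h1, A, h2, rfl⟩ := h f hf
  obtain ⟨y, rfl⟩ := key_ex h1
  obtain ⟨c, hc, rfl⟩ := hA A h2
  exact ⟨c • y, (apm_mat _ _).symm, by
    rw [← mul_smul, ← mem_cent1.1 (zp_le_cent (mem_cent1_comm.1 hg.1.1) hc), mul_smul, hg.2 y hx]⟩

/-- `k` is a possible image of `y` -/
noncomputable def cnd (As fs : List ℕ) (y k : ℕ) : Bool :=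
  band (lall fs fun f => sg (Nat.xor k f) == sg (Nat.xor y f))
    (lall As fun A => sg (Nat.xor k (apm A k)) == sg (Nat.xor y (apm A y)))

/-- generators commuting with `A` and the involution and fixing `b` -/
noncomputable def genChk (A : ℕ) (b l : List ℕ) : Bool :=
  lall l fun s => band (band (Nat.beq (mulf s A) (mulf A s)) (Nat.beq (mulf s mZ) (mulf mZ s)))
    (lall b fun x => Nat.beq (apm s x) x)

theorem comm_of_mat (ha : Odd (orderOf a)) {g : Co0} (h : mulf (mat g) (mat a) = mulf (mat a) (mat g)) :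
    g ∈ C1[a] :=
  mem_cent1.2 (commute_of_pj ha (by rwa [← mat_mulf, ← mat_mulf, mat_eq, map_mul, map_mul] at h))

theorem gen_sound (ha : Odd (orderOf a)) {b l : List ℕ} (h : genChk (mat a) b l = true) :
    gen mat l ≤ Fx (C1[a] ⊓ C1[zz]) b := gen_le fun g hg => by
  simp only [genChk, lall_iff, band_eq, Bool.and_eq_true, Nat.beq_eq] at h
  obtain ⟨⟨h1, h2⟩, h3⟩ := h _ hg
  exact ⟨⟨comm_of_mat ha h1, mem_CZ_of_mat h2⟩, fun x hx => cdx_inj (by rw [← apm_mat, h3 _ hx])⟩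

/-- one level of a stabilizer chain -/
noncomputable def lvl (A : ℕ) (As b fs l : List ℕ) (y : ℕ) (t : T) : Bool :=
  band (band (band (t4.has y) (fsChk As b fs)) (band (genChk A b l) (t.srt 0 (2 ^ 24))))
    (band (connChk apm l y t) (t4.all fun k _ _ => bor (!cnd As fs y k) (t.has k)))

theorem level (ha : Odd (orderOf a)) {A : ℕ} (hA : mat a = A) {As b fs l : List ℕ}
    (hp : pwChk A As = true) (hv : Valid mat l) {y n : ℕ} {t : T}
    (h : band (lvl A As b fs l y t) (Nat.beq t.size n) = true) :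
    Nat.card (Fx (C1[a] ⊓ C1[zz]) b) = Nat.card (Fx (C1[a] ⊓ C1[zz]) (y :: b)) * n := by
  simp only [lvl, band_eq, Bool.and_eq_true, Nat.beq_eq] at h
  obtain ⟨⟨⟨⟨h1, h2⟩, h3, h4⟩, h5, h6⟩, rfl⟩ := h
  have hAs := pw_sound hA hp
  obtain ⟨x, rfl⟩ := key_ex h1
  rw [← card_inf_stab _ x, ncard_has h4 (O := orbit (Fx (C1[a] ⊓ C1[zz]) b) x) fun k => ⟨?_, fun hk =>
    let ⟨g, hg, e⟩ := conn_keys hv rfl h5 hk; ⟨⟨g, gen_sound ha (hA ▸ h3) hg⟩, e⟩⟩]
  · rw [show Fx (C1[a] ⊓ C1[zz]) b ⊓ stabilizer Co0 x = Fx (C1[a] ⊓ C1[zz]) (cdx x :: b) from ?_]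
    exact Subgroup.ext fun g => ⟨fun h => ⟨h.1.1, fun z hz => (List.mem_cons.1 hz).elim
      (fun e => cdx_inj e ▸ h.2) (h.1.2 z)⟩, fun h => ⟨⟨h.1, fun z hz => h.2 z
        (List.mem_cons_of_mem _ hz)⟩, h.2 x List.mem_cons_self⟩⟩
  · rintro ⟨⟨g, hg⟩, rfl⟩
    change t.has (cdx (g • x)) = true
    obtain ⟨u, v, e⟩ := T.mem_keys.1 (T.has_sound (orb_iff.1
      (mem_orbit_of_mem_orbit (⟨g, hg.1.2⟩ : C1[zz]) (orb_iff.2 h1))))
    have := (T.all_iff _ _).1 h6 _ u v e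
    rw [bor_eq, Bool.or_eq_true] at this
    refine this.resolve_left ?_
    rw [Bool.not_eq_true', Bool.not_eq_false]
    simp only [cnd, band_eq, Bool.and_eq_true, lall_iff, beq_iff_eq]
    refine ⟨fun f hf => ?_, fun B hB => ?_⟩
    · obtain ⟨z, rfl, hz⟩ := fs_sound hAs h2 hg f hf
      have := sg_smul hg.1.2 (x + z)
      rwa [smul_add, hz, cdx_add, cdx_add] at this
    · obtain ⟨c, hc, rfl⟩ := hAs B hB
      have := sg_smul hg.1.2 (x + c • x)
      rwa [smul_add, ← mul_smul, ← mem_cent1.1 (zp_le_cent (mem_cent1_comm.1 hg.1.1) hc), mul_smul,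
        cdx_add, cdx_add, ← apm_mat c, ← apm_mat c] at this

theorem final {A : ℕ} (hA : mat a = A) {As b fs : List ℕ} (hp : pwChk A As = true)
    (h : band (band (fsChk As b fs) (lall b t4.has)) (nall 8 fun i => spanHas fs (col mF i)) = true) :
    Nat.card (Fx (C1[a] ⊓ C1[zz]) b) = Nat.card ↥(Q0 ⊓ C1[a]) * 2 := by
  simp only [band_eq, Bool.and_eq_true, lall_iff, nall_iff] at h
  obtain ⟨⟨h1, h2⟩, h3⟩ := h
  have hng : ng ∈ C1[a] := center_le_centralizer _ ng_mem_center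
  rw [← card_sup_center (K := Q0 ⊓ C1[a]) fun h => ng_Q0 h.1,
    show Fx (C1[a] ⊓ C1[zz]) b = Q0 ⊓ C1[a] ⊔ center Co0 from ?_]
  refine le_antisymm (fun g hg => (mem_sup_center (K := Q0 ⊓ C1[a])).2 ((mem_of_fix_W fun v hv => ?_).imp
    (fun e => ⟨e, hg.1.1⟩) fun e => ⟨e, mul_mem hng hg.1.1⟩)) (sup_le (fun k hk =>
      ⟨⟨hk.2, Q0_le_C hk.1⟩, fun x hx => ?_⟩) fun c hc => ⟨⟨center_le_centralizer _ hc,
        center_le_centralizer _ hc⟩, fun x _ => ?_⟩)
  · refine fix_of_cols (d := 8) (F := mF) (fun i hi x hx => ?_) (fix_W hv)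
    obtain ⟨y, e, hy⟩ := spanHas_ind (P := fun f => ∃ y, cdx y = f ∧ g • y = y)
      ⟨0, cdx_zero, smul_zero _⟩ (by
        rintro _ _ ⟨y, rfl, hy⟩ ⟨z, rfl, hz⟩
        exact ⟨y + z, cdx_add _ _, by rw [smul_add, hy, hz]⟩)
      (fs_sound (pw_sound hA hp) h1 hg) (h3 i hi)
    rwa [cdx_inj (hx.trans e.symm)]
  · obtain ⟨v, hv, rfl⟩ := orb_fix (orb_iff.2 (h2 _ hx))
    rw [smul_cl, Q0_fix hk.1 hv]
  · rw [act_of_pj ((pj_eq_one.2 (Leech.mem_center_iff.1 hc)).trans (map_one pj).symm), one_smul]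

/-! ### The centralizer of the fixed points in the extraspecial group -/

/-- elements centralized by `d` modulo the involution -/
def Tz (d : Co0) : Subgroup Co0 where
  carrier := {y | y ∈ Q0 ∧ (d * y * d⁻¹ = y ∨ d * y * d⁻¹ = y * zz)}
  one_mem' := ⟨one_mem _, Or.inl (by group)⟩
  mul_mem' := by
    rintro x y ⟨hx, h⟩ ⟨hy, h'⟩
    have e : d * (x * y) * d⁻¹ = d * x * d⁻¹ * (d * y * d⁻¹) := by group
    have c := (es_Q0.zc y hy).eq
    refine ⟨mul_mem hx hy, ?_⟩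
    rcases h with h | h <;> rcases h' with h' | h' <;> rw [e, h, h']
    · exact Or.inl rfl
    · exact Or.inr (mul_assoc _ _ _).symm
    · exact Or.inr (by rw [mul_assoc, c, mul_assoc])
    · exact Or.inl (by rw [mul_assoc, ← mul_assoc zz, c, mul_assoc y, zz_zz, mul_one])
  inv_mem' := by
    rintro x ⟨hx, h⟩
    have e : d * x⁻¹ * d⁻¹ = (d * x * d⁻¹)⁻¹ := by group
    refine ⟨inv_mem hx, h.imp (fun h => by rw [e, h]) fun h => ?_⟩
    rw [e, h, mul_inv_rev, es_Q0.inv, (es_Q0.zc _ (inv_mem hx)).eq]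

/-- all members of the list are conjugates of `U` by powers of `A` -/
noncomputable def ucChk (A Ai U : ℕ) (Us : List ℕ) : Bool :=
  List.rec (motive := fun _ => Bool) true (fun x r ih =>
    band (bor (Nat.beq x U) (lany r fun y => Nat.beq x (force (mulf A y) fun B => mulf B Ai))) ih) Us

theorem uc_sound {A Ai U : ℕ} (hA : mat a = A) (hAi : mat a⁻¹ = Ai) {u : Co0} (hu : mat u = U)
    {Us : List ℕ} (h : ucChk A Ai U Us = true) :
    ∀ x ∈ Us, ∃ c ∈ zpowers a, mat (c * u * c⁻¹) = x := by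
  induction Us with
  | nil => exact fun _ h => nomatch h
  | cons x r ih =>
    have h' : band (bor (Nat.beq x U) (lany r fun y => Nat.beq x (force (mulf A y) fun B => mulf B Ai)))
      (ucChk A Ai U r) = true := h
    simp only [band_eq, bor_eq, Bool.and_eq_true, Bool.or_eq_true, Nat.beq_eq, lany_iff,
      force_eq] at h'
    refine List.forall_mem_cons.2 ⟨?_, ih h'.2⟩
    rcases h'.1 with rfl | ⟨y, hy, rfl⟩
    · exact ⟨1, one_mem _, by rw [one_mul, inv_one, mul_one, hu]⟩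
    · obtain ⟨c, hc, rfl⟩ := ih h'.2 y hy
      exact ⟨a * c, mul_mem (mem_zpowers a) hc, by
        rw [← hA, ← hAi, ← mat_mulf, ← mat_mulf]; exact congrArg mat (by group)⟩

/-- some product of `B` with a subproduct of the list passes the test -/
noncomputable def sub (us : List ℕ) (f : ℕ → Bool) : ℕ → Bool :=
  List.rec (motive := fun _ => ℕ → Bool) f (fun s _ ih B => bor (ih B) (force (mulf B s) ih)) us

theorem sub_sound {H : Subgroup Co0} {us : List ℕ} (hu : ∀ s ∈ us, ∃ h ∈ H, mat h = s)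
    {f : ℕ → Bool} {b : Co0} (h : sub us f (mat b) = true) : ∃ h ∈ H, f (mat (b * h)) = true := by
  induction us generalizing b with
  | nil => exact ⟨1, one_mem _, by rwa [mul_one]⟩
  | cons s us ih =>
    have h' : bor (sub us f (mat b)) (force (mulf (mat b) s) (sub us f)) = true := h
    have ih' := @ih fun t ht => hu t (List.mem_cons_of_mem _ ht)
    rw [bor_eq, Bool.or_eq_true, force_eq] at h'
    refine h'.elim ih' fun h' => ?_
    obtain ⟨x, hx, rfl⟩ := hu s List.mem_cons_self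
    rw [← mat_mulf] at h'
    obtain ⟨y, hy, e⟩ := ih' h'
    exact ⟨x * y, mul_mem hx hy, by rwa [← mul_assoc]⟩

/-- the matrices commute -/
noncomputable def cmm (A B : ℕ) : Bool := Nat.beq (mulf A B) (mulf B A)

/-- certificate for the centralizer of the fixed points -/
noncomputable def cChk (t : T) (A Ai U UU : ℕ) (KG Us : List ℕ) : Bool :=
  band (band (band (lall KG fun k => band (t.has k) (band (cmm k A) (cmm k U)))
      (band (t.has U) (band (!Nat.beq U onem) (!Nat.beq U mZ))))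
    (band (ucChk A Ai U Us) (lall lQ (sub Us fun W => cmm W A)))) (Nat.beq (mulf U U) UU)

/-- test for the elements of the extraspecial group -/
noncomputable def cF (UU : ℕ) (KG Us : List ℕ) (B : ℕ) : Bool :=
  bor (!lall KG fun k => cmm k B)
    (bor (bor (Nat.beq B onem) (Nat.beq B mZ)) (bor (!Nat.beq (mulf B B) UU)
      (lany Us fun x => bor (Nat.beq B x) (Nat.beq B (mulf x mZ)))))

theorem cent_sound {t : T} (ht : Tab t) (ha : Odd (orderOf a)) (haz : a ∈ C1[zz]) {A Ai U UU : ℕ}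
    (hA : mat a = A) (hAi : mat a⁻¹ = Ai) {KG Us : List ℕ} (h : cChk t A Ai U UU KG Us = true)
    (h7 : (t.all fun B _ _ => cF UU KG Us B) = true) :
    ∀ d ∈ C1[a], d ∈ C[Q0 ⊓ C1[a]] → ∃ c ∈ zpowers a, c⁻¹ * d ∈ Q0 ∨ ng * (c⁻¹ * d) ∈ Q0 := by
  intro d hd hK
  simp only [cChk, band_eq, Bool.and_eq_true, lall_iff, Bool.not_eq_true', cmm, Nat.beq_eq] at h
  obtain ⟨⟨⟨h1, h2, h3, h4⟩, h5, h6⟩, rfl⟩ := h
  obtain ⟨u, hu, rfl⟩ := ht.has h2
  have hz : d ∈ C1[zz] := mem_cent1.2 (hK zz ⟨zz_Q0, mem_cent1_comm.1 haz⟩).symm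
  have hv := conj_Q0 hz hu
  have hUs := uc_sound hA hAi rfl h5
  have hc : ∀ c ∈ zpowers a, c * u * c⁻¹ ∈ Q0 := fun c hc => conj_Q0 (zp_le_cent haz hc) hu
  have := ht.all h7 hv
  simp only [cF, cmm, bor_eq, Bool.or_eq_true, Bool.not_eq_true', lany_iff, Nat.beq_eq] at this
  obtain ⟨c, c1, c2⟩ : ∃ c ∈ zpowers a, d * u * d⁻¹ = c * u * c⁻¹ ∨ d * u * d⁻¹ = c * u * c⁻¹ * zz := by
    rcases this with b | (b | b) | b | ⟨x, hx, b⟩
    · refine absurd ((lall_iff _ _).2 fun k hk => ?_) (Bool.eq_false_iff.1 b)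
      obtain ⟨k, k1, rfl⟩ := ht.has (h1 k hk).1
      have k2 := hK k ⟨k1, comm_of_mat ha (hA ▸ (h1 _ hk).2.1)⟩
      have k3 := (h1 _ hk).2.2
      rw [← mat_mulf, ← mat_mulf] at k3
      replace k3 := mat_inj (mul_mem k1 hu) (mul_mem hu k1) k3
      rw [Nat.beq_eq, ← mat_mulf, ← mat_mulf]
      exact congrArg mat (Commute.mul_right (Commute.mul_right k2 k3) (Commute.inv_right k2))
    · rw [← mat_one] at b
      rw [conj_eq_one_iff.1 (mat_inj hv (one_mem _) b), mat_one, Nat.beq_refl] at h3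
      exact nomatch h3
    · rw [← mat_zz] at b
      have := mat_inj hv zz_Q0 b
      rw [mul_inv_eq_iff_eq_mul, ← mem_cent1.1 hz, mul_right_inj] at this
      rw [this, mat_zz, Nat.beq_refl] at h4
      exact nomatch h4
    · refine absurd ?_ (Bool.eq_false_iff.1 b)
      rw [Nat.beq_eq, ← mat_mulf, ← mat_mulf,
        show d * u * d⁻¹ * (d * u * d⁻¹) = d * (u * u) * d⁻¹ by group]
      rcases Q0_sq hu with e | e <;> rw [e]
      · rw [mul_one, mul_inv_cancel]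
      · rw [mem_cent1.1 hz, mul_inv_cancel_right]
    · obtain ⟨c, c1, rfl⟩ := hUs x hx
      rw [← mat_zz, ← mat_mulf] at b
      exact ⟨c, c1, b.imp (mat_inj hv (hc c c1)) (mat_inj hv (mul_mem (hc c c1) zz_Q0))⟩
  have cz : c ∈ C1[zz] := zp_le_cent haz c1
  have t1 : Q0 ⊓ C1[a] ≤ Tz (c⁻¹ * d) := fun k hk => ⟨hk.1, Or.inl (by
    rw [mul_inv_eq_iff_eq_mul, mul_assoc, ← hK k hk, ← mul_assoc,
      mem_cent1.1 (inv_mem (zp_le_cent (mem_cent1_comm.1 hk.2) c1)), mul_assoc])⟩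
  have t2 : ∀ s ∈ Us, ∃ h ∈ Tz (c⁻¹ * d), mat h = s := fun s hs => by
    obtain ⟨e, e1, rfl⟩ := hUs s hs
    have e2 := mem_cent1.1 (zp_le_cent (mem_cent1_comm.1 (mul_mem (inv_mem
      (zp_le_cent (mem_cent1.2 rfl) c1)) hd)) e1)
    have e3 : c⁻¹ * d * (e * u * e⁻¹) * (c⁻¹ * d)⁻¹ = e * (c⁻¹ * (d * u * d⁻¹) * c) * e⁻¹ := by
      rw [← mul_assoc, ← mul_assoc, ← e2, mul_assoc _ e⁻¹, ← mul_inv_rev, ← e2]; group
    refine ⟨_, ⟨hc e e1, ?_⟩, rfl⟩
    rw [e3]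
    refine c2.imp (fun h => by rw [h]; group) fun h => ?_
    rw [h, show c⁻¹ * (c * u * c⁻¹ * zz) * c = u * (c⁻¹ * (zz * c)) by group, ← mem_cent1.1 cz,
      inv_mul_cancel_left, mul_assoc _ e⁻¹, mem_cent1.1 (inv_mem (zp_le_cent haz e1))]
    group
  refine ⟨c, c1, mem_of_triv fun y hy => (ht.le (fun s s1 s2 => ?_) hy : y ∈ Tz (c⁻¹ * d)).2⟩
  obtain ⟨h, e1, e2⟩ := sub_sound t2 (h6 _ s2)
  exact (mul_mem_cancel_right e1).1 (t1 ⟨mul_mem s1 e1.1,
    comm_of_mat ha (hA ▸ Nat.eq_of_beq_eq_true e2)⟩)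

theorem card_K {t : T} (ht : Tab t) (ha : Odd (orderOf a)) {A n : ℕ} (hA : mat a = A)
    (h : t.count (fun B => cmm B A) = n) : Nat.card ↥(Q0 ⊓ C1[a]) = n :=
  (ht.count fun k _ => by
    rw [cmm, Nat.beq_eq, ← hA]
    exact ⟨fun h => by rw [← mat_mulf, ← mat_mulf, mem_cent1.1 h], comm_of_mat ha⟩).trans h

theorem exists_order {A p : ℕ} (hp : p.Prime) (h2 : Odd p) (hv : ∃ g, mat g = A) {Ai : ℕ}
    (h : band (band (Nat.beq (cpow mulf onem A p) onem) (!Nat.beq A onem))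
      (Nat.beq (cpow mulf onem A (p - 1)) Ai) = true) :
    ∃ a, mat a = A ∧ mat a⁻¹ = Ai ∧ orderOf a = p := by
  obtain ⟨g, rfl⟩ := hv
  have e : ∀ (x : Co0) n, cpow mulf onem (mat x) n = mat (x ^ n) := fun x n => by
    induction n with
    | zero => exact (pow_zero x).symm ▸ mat_one.symm
    | succ n ih =>
      rw [pow_succ, mat_mulf, ← ih]
      exact force_eq (cpow mulf onem (mat x) n) fun a => mulf a (mat x)
  simp only [band_eq, Bool.and_eq_true, Bool.not_eq_true', Nat.beq_eq, e] at h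
  obtain ⟨⟨h3, h4⟩, h5⟩ := h
  rw [← mat_one] at h3
  have h6 : mat (g ^ (p + 1)) = mat g := by rw [pow_succ, mat_mulf, h3, ← mat_mulf, one_mul]
  have h7 : (g ^ (p + 1)) ^ p = 1 := by
    obtain ⟨k, hk⟩ := h2
    rw [← pow_mul, mul_comm, pow_mul, show p + 1 = 2 * (k + 1) by omega, pow_mul, sq]
    rcases pj_eq_one.1 ((mat_eq.1 h3).trans (map_one _)) with a | a <;> rw [a]
    · rw [one_mul, one_pow]
    · rw [ng_mul_self, one_pow]
  have := Fact.mk hp
  refine ⟨_, h6, ?_, orderOf_eq_prime h7 fun a => ?_⟩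
  · rw [← h5, mat_eq, map_inv, mat_eq.1 h6, inv_eq_iff_mul_eq_one, ← map_mul, ← pow_succ',
      Nat.sub_add_cancel hp.one_le, mat_eq.1 h3, map_one]
  · rw [← h6, a, mat_one, Nat.beq_refl] at h4
    exact nomatch h4

/-- the section by an element of odd prime order -/
theorem sect {p : ℕ} (h2 : Odd p) (ha : orderOf a = p) (haz : a ∈ C1[zz]) {w N : ℕ}
    (cK : Nat.card ↥(Q0 ⊓ C1[a]) = 2 ^ (2 * w + 1))
    (cD : Nat.card ↥(C1[a] ⊓ C1[zz]) = p * 2 * (2 ^ (2 * w + 1) * N))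
    (hC : ∀ d ∈ C1[a], d ∈ C[Q0 ⊓ C1[a]] → ∃ c ∈ zpowers a, c⁻¹ * d ∈ Q0 ∨ ng * (c⁻¹ * d) ∈ Q0)
    {A G K : ℕ} (hA : mat a = A) (hG : ∃ g, mat g = G)
    (h : band (band (band (cmm G A) (cmm K A)) (band (tQ.has K) (Nat.beq (mulf G mZ) (mulf K G))))
      (band (!Nat.beq K onem) (!Nat.beq K mZ)) = true) :
    ∃ A : Subgroup Co0, Nat.card A = p ∧
      ∃ _ : ((A ⊔ center Co0).subgroupOf C[A]).Normal,
        ∃ (Q : Subgroup (C[A] ⧸ (A ⊔ center Co0).subgroupOf C[A])) (z g : _), LT Q z g w N := by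
  subst ha
  simp only [band_eq, Bool.and_eq_true, Bool.not_eq_true', Nat.beq_eq, cmm] at h
  obtain ⟨⟨⟨h3, h4⟩, h5, h6⟩, h7, h8⟩ := h
  obtain ⟨g, rfl⟩ := hG
  obtain ⟨k, hk, rfl⟩ := tab.has h5
  have hle : zpowers a ⊔ center Co0 ≤ C[zpowers a] :=
    sup_le (cent_zpowers a ▸ zp_le_cent (mem_cent1.2 rfl)) (center_le_centralizer _)
  have hn : ((zpowers a ⊔ center Co0).subgroupOf C[zpowers a]).Normal := ⟨fun x hx m => by
    obtain ⟨y, hy, c, hc, e⟩ := mem_sup_of_normal_right.1 hx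
    have : (x : Co0) * m = m * x := by
      rw [← show y * c = x from e, mul_assoc, ← Subgroup.mem_center_iff.1 hc, ← mul_assoc, m.2 y hy, mul_assoc]
    rwa [show m * x * m⁻¹ = x from Subtype.ext (mul_inv_eq_iff_eq_mul.2 this.symm)]⟩
  exact ⟨zpowers a, Nat.card_zpowers a, hn, core (QuotientGroup.mk' _) (QuotientGroup.mk'_surjective _)
    h2 (cent_zpowers a) (by rw [kr_mk', map_subgroupOf_eq_of_le hle]) haz cK cD hC
    (comm_of_mat h2 (hA ▸ h3)) ⟨hk, comm_of_mat h2 (hA ▸ h4)⟩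
    (fun e => by rw [e, mat_one, Nat.beq_refl] at h7; exact nomatch h7)
    (fun e => by rw [e, mat_zz, Nat.beq_refl] at h8; exact nomatch h8)
    (by rw [mat_mulf, mat_mulf, mat_zz, h6])⟩

end Cfsg.Agent.CoS
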