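import Cfsg.Agent.Leech.Fix

/-! # A faster product of bit matrices -/

set_option autoImplicit false

namespace Cfsg.Agent.CoS

open Cfsg.Agent.M24 Cfsg.Agent.Leech

/-- lowest bits of the columns -/
def ones : ℕ → ℕ
  | 0 => 0
  | n + 1 => 2 ^ 24 * ones n + 1

theorem col_zero (a b : ℕ) (hb : b < 2 ^ 24) : col (2 ^ 24 * a + b) 0 = b := by
  change ((2 ^ 24 * a + b) >>> 0) &&& (2 ^ 24 - 1) = b
  rw [Nat.shiftRight_zero, Nat.and_two_pow_sub_one_eq_mod, Nat.mul_add_mod, Nat.mod_eq_of_lt hb]

theorem col_succ (a b i : ℕ) (hb : b < 2 ^ 24) : col (2 ^ 24 * a + b) (i + 1) = col a i := by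
  change ((2 ^ 24 * a + b) >>> (24 * (i + 1))) &&& _ = (a >>> (24 * i)) &&& _
  rw [mul_add, mul_one, add_comm (24 * i), Nat.shiftRight_add, Nat.shiftRight_eq_div_pow _ 24,
    Nat.mul_add_div (by norm_num), Nat.div_eq_of_lt hb, add_zero]

theorem and_ones (y n : ℕ) : y &&& ones (n + 1) = 2 ^ 24 * ((y >>> 24) &&& ones n) + (y &&& 1) := by
  refine Nat.eq_of_testBit_eq fun k => ?_
  have : y &&& 1 < 2 ^ 24 := lt_of_le_of_lt Nat.and_le_right (by norm_num)
  rw [ones, Nat.testBit_and, Nat.testBit_two_pow_mul_add _ (by norm_num),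
    Nat.testBit_two_pow_mul_add _ this]
  split_ifs with h
  · rw [Nat.testBit_and]
  · rw [Nat.testBit_and, Nat.testBit_shiftRight, Nat.add_sub_cancel' (not_lt.1 h)]

theorem col_mul {x : ℕ} (hx : x < 2 ^ 24) (n y i : ℕ) :
    col (x * (y &&& ones n)) i = if i < n then x * ((y >>> (24 * i)) &&& 1) else 0 := by
  induction n generalizing y i with
  | zero => simp [ones, col]
  | succ n ih =>
    have : x * (y &&& 1) < 2 ^ 24 :=
      lt_of_le_of_lt ((Nat.mul_le_mul_left x Nat.and_le_right).trans (mul_one x).le) hx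
    rw [and_ones, mul_add, mul_left_comm]
    cases i with
    | zero => rw [col_zero _ _ this, if_pos (Nat.succ_pos n)]; rfl
    | succ i =>
      rw [col_succ _ _ _ this, ih, ← Nat.shiftRight_add, mul_add, mul_one, add_comm (24 * i)]
      simp only [Nat.add_lt_add_iff_right]

theorem mul_ones_lt {x : ℕ} (hx : x < 2 ^ 24) (n y : ℕ) : x * (y &&& ones n) < 2 ^ (24 * n) := by
  induction n generalizing y with
  | zero => simp [ones]
  | succ n ih =>
    have : x * (y &&& 1) < 2 ^ 24 :=
      lt_of_le_of_lt ((Nat.mul_le_mul_left x Nat.and_le_right).trans (mul_one x).le) hx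
    have := ih (y >>> 24)
    rw [and_ones, mul_add, mul_left_comm, mul_add, mul_one, pow_add]
    nlinarith

theorem col_xor (a b i : ℕ) : col (a ^^^ b) i = col a i ^^^ col b i := by
  change ((a ^^^ b) >>> _) &&& _ = ((a >>> _) &&& _) ^^^ ((b >>> _) &&& _)
  rw [Nat.shiftRight_xor_distrib, Nat.and_xor_distrib_right]

theorem col_lt (M j : ℕ) : col M j < 2 ^ 24 := apw_lt (w := 24) (mk := 0xffffff) (by norm_num) M j

theorem testBit_col (M j t : ℕ) : (col M j).testBit t = (decide (t < 24) && M.testBit (24 * j + t)) :=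
  testBit_apw (w := 24) (mk := 0xffffff) (by norm_num) M j t

theorem eq_of_col {a b : ℕ} (ha : a < 2 ^ 576) (hb : b < 2 ^ 576) (h : ∀ j < 24, col a j = col b j) :
    a = b := Nat.eq_of_testBit_eq fun k => by
  by_cases hk : k < 576
  · have := congrArg (·.testBit (k % 24)) (h (k / 24) (by omega))
    simpa only [testBit_col, Nat.div_add_mod, Nat.mod_lt k (show 0 < 24 by norm_num), decide_true,
      Bool.true_and] using this
  · have e := Nat.pow_le_pow_right (show 0 < 2 by norm_num) (not_lt.1 hk)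
    rw [Nat.testBit_lt_two_pow (ha.trans_le e), Nat.testBit_lt_two_pow (hb.trans_le e)]

/-- partial product -/
noncomputable def muln (n A B : ℕ) : ℕ :=
  Nat.rec (motive := fun _ => ℕ) (nat_lit 0) (fun j acc =>
    Nat.xor acc (Nat.mul (col A j) (Nat.land (Nat.shiftRight B j) (nat_lit
      0x1000001000001000001000001000001000001000001000001000001000001000001000001000001000001000001000001000001000001000001000001000001000001000001)))) n

/-- product of bit matrices -/
noncomputable def mulf (A B : ℕ) : ℕ := muln (nat_lit 24) A B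

theorem muln_succ (n A B : ℕ) :
    muln (n + 1) A B = muln n A B ^^^ col A n * ((B >>> n) &&& ones 24) := by
  rw [show ones 24 = nat_lit
      0x1000001000001000001000001000001000001000001000001000001000001000001000001000001000001000001000001000001000001000001000001000001000001000001 by decide +kernel]
  rfl

theorem muln_ok (A B : ℕ) {n : ℕ} (hn : n ≤ 24) :
    muln n A B < 2 ^ 576 ∧ ∀ i < 24, col (muln n A B) i = apn n A (col B i) := by
  induction n with
  | zero => exact ⟨Nat.two_pow_pos _, fun i _ => by simp [muln, col, apn]⟩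
  | succ n ih =>
    obtain ⟨h1, h2⟩ := ih (by omega)
    rw [muln_succ]
    refine ⟨Nat.xor_lt_two_pow h1 (mul_ones_lt (col_lt _ _) 24 _), fun i hi => ?_⟩
    rw [col_xor, h2 i hi, col_mul (col_lt _ _), if_pos hi, apn_succ, bit_eq, bit_eq, testBit_col,
      Nat.testBit_shiftRight, decide_eq_true (show n < 24 by omega), Bool.true_and, add_comm]

theorem pk_lt {f : ℕ → ℕ} (hf : ∀ j < 24, f j < 2 ^ 24) : pk f < 2 ^ 576 :=
  Nat.lt_pow_two_of_testBit _ fun k hk => by
    rw [← Bool.not_eq_true, pk, testBit_orAll]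
    rintro ⟨i, hi, h⟩
    change (f i <<< (24 * i)).testBit k = true at h
    rw [Nat.testBit_shiftLeft, Bool.and_eq_true, Nat.testBit_lt_two_pow ((hf i hi).trans_le
      (Nat.pow_le_pow_right (by norm_num) (by change i < 24 at hi; omega)))] at h
    exact absurd h.2 (by simp)

theorem mulf_eq : mulf = mulm := funext₂ fun A B => by
  have hf : ∀ j < 24, force (col B j) (apm A) < 2 ^ 24 := fun j _ => by
    rw [force_eq]; exact apn_lt _ _ _
  exact eq_of_col (muln_ok A B le_rfl).1 (pk_lt hf) fun j hj => by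
    rw [mulm, col_pk hf hj, force_eq]; exact (muln_ok A B le_rfl).2 j hj

theorem mat_mulf (g h : Cfsg.Co0) : mat (g * h) = mulf (mat g) (mat h) := by rw [mulf_eq, mat_mul]

end Cfsg.Agent.CoS
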