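import Cfsg.Agent.CoS.ZD
import Cfsg.Agent.CoS.Mul
import Cfsg.Agent.M24.OctOrb

/-! # The centralizer in the Conway group of a sign change on the complement of an octad -/

set_option autoImplicit false

namespace Cfsg.Agent.CoS

open Cfsg.Spor Cfsg.Agent.GT Cfsg.Agent.TT Subgroup Cfsg.Agent.M24 Cfsg.Agent.Leech MulAction Finset
open scoped Pointwise symmDiff

/-- the complement of the octad -/
def OC : Finset GolayPt := unmask 8241104

theorem cwOC : IsCw OC := (isCw_unmask (by norm_num)).2 (by decide +kernel)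

theorem mem_OC {p : GolayPt} : p ∈ OC ↔ p ∉ O0 := by
  rw [OC, mem_unmask, mem_O0]; revert p; decide +kernel

theorem none_O0 : none ∈ O0 := mem_O0.2 (by decide +kernel)

/-- the involution -/
noncomputable def zz : Co0 := sgn OC

theorem zz_zz : zz * zz = 1 := sgn_mul_self _

theorem zz_fix {v : Lv} : zz • v = v ↔ ∀ p, p ∉ O0 → v.1 p = 0 := by
  refine ⟨fun h p hp => ?_, fun h => Subtype.ext (funext fun p => ?_)⟩
  · have := sgn_apply cwOC v p
    rw [show sgn OC • v = v from h, if_pos (mem_OC.2 hp)] at this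
    omega
  · rw [zz, sgn_apply cwOC]
    split_ifs with hp
    · rw [h p (mem_OC.1 hp), neg_zero]
    · rfl

theorem zz_e8 {p : GolayPt} (hp : p ∈ O0) : zz • e8 p = e8 p := by
  rw [zz, sgn_e8 cwOC, if_neg (mt mem_OC.1 (not_not.2 hp))]

theorem zz_smul {g : Co0} (hg : g ∈ C1[zz]) {v : Lv} (hv : zz • v = v) : zz • g • v = g • v := by
  rw [← mul_smul, ← mem_cent1.1 hg, mul_smul, hv]

/-- the pointwise stabilizer of the fixed lattice -/
def Q0 : Subgroup Co0 where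
  carrier := {g | ∀ p ∈ O0, g • e8 p = e8 p}
  one_mem' _ _ := one_smul _ _
  mul_mem' h h' p hp := by rw [mul_smul, h' p hp, h p hp]
  inv_mem' h p hp := by rw [inv_smul_eq_iff, h p hp]

theorem zz_Q0 : zz ∈ Q0 := fun _ => zz_e8

theorem ng_Q0 : ng ∉ Q0 := fun h => e8_ne_neg none none ((h _ none_O0).symm.trans (ng_smul _))

theorem Q0_fix {k : Co0} (hk : k ∈ Q0) {v : Lv} (hv : zz • v = v) : k • v = v := by
  have : (8 : ℤ) • (k • v) = (8 : ℤ) • v := by
    rw [← smul_zsmul', eight_smul, smul_sum]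
    refine sum_congr rfl fun p _ => ?_
    by_cases hp : p ∈ O0
    · rw [smul_zsmul', hk p hp]
    · rw [zz_fix.1 hv p hp, zero_smul, smul_zero]
  refine Subtype.ext (funext fun i => ?_)
  have := congrArg (fun w : Lv => w.1 i) this
  simp only [AddSubgroupClass.coe_zsmul, Pi.smul_apply, smul_eq_mul] at this
  omega

theorem conj_Q0 {g k : Co0} (hg : g ∈ C1[zz]) (hk : k ∈ Q0) : g * k * g⁻¹ ∈ Q0 := fun p hp => by
  rw [mul_smul, mul_smul, Q0_fix hk (zz_smul (inv_mem hg) (zz_e8 hp)), smul_inv_smul]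

theorem C_le_N : C1[zz] ≤ N[Q0] := fun _ hg => mem_normalizer_of_conj fun _ => conj_Q0 hg

theorem mem_Q0 {c : Finset GolayPt} (hc : IsCw c) {σ : M24} :
    sgn c * prm σ ∈ Q0 ↔ Disjoint c O0 ∧ σ ∈ pstab O0 := by
  refine ⟨fun h => ?_, fun h p hp => by
    rw [sgn_prm_e8 hc, mem_pstab.1 h.2 p hp, if_neg (disjoint_right.1 h.1 hp)]⟩
  have : ∀ p ∈ O0, σ.1 p = p ∧ p ∉ c := fun p hp => by
    have := h p hp
    rw [sgn_prm_e8 hc] at this
    split_ifs at this with h1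
    · exact absurd this.symm (e8_ne_neg _ _)
    · exact ⟨e8_inj this, e8_inj this ▸ h1⟩
  exact ⟨disjoint_right.2 fun p hp => (this p hp).2, mem_pstab.2 fun p hp => (this p hp).1⟩

theorem Q0_le_Nm : Q0 ≤ Nm := fun _ h => mem_Nm_of_e8 (Or.inl (h _ none_O0))

theorem smul_OC {σ : M24} : σ.1 • OC = OC ↔ σ ∈ stabilizer M24 O0 := by
  have : ∀ s t : Finset GolayPt, (∀ p, p ∈ s ↔ p ∉ t) → σ.1 • s = s → σ.1 • t = t := fun s t h e => by
    ext p
    obtain ⟨p, rfl⟩ := σ.1.surjective p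
    rw [mem_smul_iff', ← not_iff_not, ← h, ← h, ← mem_smul_iff' σ.1, e]
  exact ⟨this _ _ fun _ => mem_OC, this _ _ fun _ => by rw [mem_OC, not_not]⟩

theorem mem_CZ {c : Finset GolayPt} (hc : IsCw c) {σ : M24} :
    sgn c * prm σ ∈ C1[zz] ↔ σ ∈ stabilizer M24 O0 := by
  rw [mem_cent1, zz, mul_assoc, prm_mul_sgn σ cwOC, ← mul_assoc, ← mul_assoc, mul_left_inj,
    sgn_comm cwOC hc, mul_right_inj, ← smul_OC]
  exact ⟨sgn_inj (cwOC.smul σ.2) cwOC, congrArg _⟩

theorem pstab_le : pstab O0 ≤ stabilizer M24 O0 := fun σ h => by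
  rw [mem_stabilizer_iff, M24_smul_def, smul_eq_of_agree (σ := 1) (mem_pstab.1 h), one_smul]

theorem Q0_le_C : Q0 ≤ C1[zz] := fun k hk => by
  obtain ⟨c, σ, hc, rfl⟩ := mem_Nm.1 (Q0_le_Nm hk)
  exact (mem_CZ hc).2 (pstab_le ((mem_Q0 hc).1 hk).2)

theorem card_mono {H : Subgroup Co0} (hH : H ≤ Nm) {P : Finset GolayPt → Prop} {X : Subgroup M24}
    (h : ∀ c σ, IsCw c → (sgn c * prm σ ∈ H ↔ P c ∧ σ ∈ X)) :
    Nat.card H = {c | IsCw c ∧ P c}.ncard * Nat.card X := by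
  rw [← Nat.card_coe_set_eq, ← Nat.card_prod]
  refine (Nat.card_congr (Equiv.ofBijective (fun x : {c | IsCw c ∧ P c} × X =>
    (⟨sgn x.1 * prm x.2, (h _ _ x.1.2.1).2 ⟨x.1.2.2, x.2.2⟩⟩ : H)) ⟨?_, ?_⟩)).symm
  · rintro ⟨⟨c, hc⟩, σ⟩ ⟨⟨d, hd⟩, τ⟩ e
    obtain ⟨rfl, h⟩ := sgn_prm_inj hc.1 hd.1 (Subtype.mk.inj e)
    exact Prod.ext rfl (Subtype.ext h)
  · rintro ⟨g, hg⟩
    obtain ⟨c, σ, hc, rfl⟩ := mem_Nm.1 (hH hg)
    exact ⟨⟨⟨c, hc, ((h _ _ hc).1 hg).1⟩, σ, ((h _ _ hc).1 hg).2⟩, rfl⟩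

theorem card_pstab_O0 : Nat.card (pstab O0) = 16 := by
  have h := (chkM_sound cO_chk).2.1
  have e : pstab O0 = gen mcode (gensOf (cO.drop 6)) := by
    refine le_antisymm (fun σ hσ => h.mem_drop 6 (stab_O0 ▸ pstab_le hσ) fun L hL x _ hx =>
      mem_pstab.1 hσ x (mem_O0.2 ?_)) (gen_le fun σ hσ => mem_pstab.2 (fixesAll_iff.1 ?_))
    · rw [hx]; clear hx; revert L; decide +kernel
    · rw [mask_O0]
      exact (lall_iff _ _).1 (by decide +kernel : lall (gensOf (cO.drop 6)) (fixesAll 8536111) = true) _ hσ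
  rw [e, (h.drop 6).card]; decide +kernel

theorem card_Q0 : Nat.card Q0 = 512 := by
  rw [card_mono Q0_le_Nm fun _ _ hc => mem_Q0 hc, card_pstab_O0,
    ncard_cw (f := fun m => Nat.beq (Nat.land m 8536111) 0) fun s _ => by
      rw [disjoint_iff_mask, mask_O0, Nat.beq_eq]]
  decide +kernel

theorem card_NZ : Nat.card ↥(Nm ⊓ C1[zz]) = 4096 * 322560 := by
  rw [card_mono inf_le_left (P := fun _ => True) (X := stabilizer M24 O0) fun c σ hc => by
      rw [Subgroup.mem_inf, mem_CZ hc, true_and, and_iff_right (mem_Nm.2 ⟨c, σ, hc, rfl⟩)], card_stab_O0,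
    ncard_cw (f := fun _ => true) fun s _ => by simp]
  decide +kernel

theorem not_conj (g : Co0) : g * zz * g⁻¹ ≠ ng * zz := fun h => by
  have h1 : ∀ p ∈ OC, ∀ i, i ∉ O0 → (g⁻¹ • e8 p).1 i = 0 := fun p hp => zz_fix.1 (by
    rw [← mul_smul, show zz * g⁻¹ = g⁻¹ * (g * zz * g⁻¹) by group, h, mul_smul, mul_smul, zz,
      sgn_e8 cwOC, if_pos hp, ng_smul, neg_neg])
  have h2 : ∀ p i, (g⁻¹ • e8 p).1 i = (g • e8 i).1 p := fun p i => by
    have := dot_smul g (g⁻¹ • e8 p) (e8 i)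
    rw [smul_inv_smul, dot_e8, dot_comm, dot_e8] at this
    omega
  have h3 : ∀ p ∈ OC, ∑ i ∈ O0, (g • e8 i).1 p ^ 2 = 64 := fun p hp => by
    rw [← norm_e8 p, ← norm_smul g⁻¹, sqNorm]
    simp only [← h2]
    exact sum_subset (subset_univ _) fun i _ hi => by rw [h1 p hp i hi]; rfl
  have h4 : ∀ i ∈ O0, ∑ p ∈ OC, (g • e8 i).1 p ^ 2 ≤ 64 := fun i _ => by
    rw [← norm_e8 i, ← norm_smul g, sqNorm]
    exact sum_le_sum_of_subset_of_nonneg (subset_univ _) fun _ _ _ => sq_nonneg _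
  have h5 := sum_le_sum h4
  rw [sum_comm, sum_congr rfl h3, sum_const, sum_const, (mem_octads.1 O0_mem).2, OC,
    card_unmask (by norm_num), show pc 8241104 = 16 by decide +kernel] at h5
  norm_num at h5

theorem mat_zz : mat zz = mZ := (mat_sgn cwOC).trans (by decide +kernel)

theorem mem_CZ_of_mat {g : Co0} (h : mulf (mat g) mZ = mulf mZ (mat g)) : g ∈ C1[zz] := by
  rw [← mat_zz, ← mat_mulf, ← mat_mulf, mat_eq, pj_eq] at h
  refine mem_cent1.2 (h.resolve_right fun e => not_conj g ?_).symm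
  rw [mul_inv_eq_iff_eq_mul, mul_assoc, e, ← mul_assoc, ng_mul_self, one_mul]

theorem gen_le_CZ {l : List ℕ} (h : (lall l fun s => Nat.beq (mulf s mZ) (mulf mZ s)) = true) :
    gen mat l ≤ C1[zz] :=
  gen_le fun _ hg => mem_CZ_of_mat (Nat.eq_of_beq_eq_true ((lall_iff _ _).1 h _ hg))

theorem mat_inj {k k' : Co0} (h : k ∈ Q0) (h' : k' ∈ Q0) (e : mat k = mat k') : k = k' :=
  ((pj_eq.1 (mat_eq.1 e)).resolve_right fun e => ng_Q0 (by
    rw [← mul_inv_eq_iff_eq_mul] at e; exact e ▸ mul_mem h' (inv_mem h))).symm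

theorem cs_ok : ∀ m ∈ cs, IsCw (unmask m) ∧ sgn (unmask m) ∈ Q0 := fun m hm => by
  have h : m < 2 ^ 24 ∧ syn m = 0 ∧ Nat.land m 8536111 = 0 := by revert m; decide +kernel
  have := (isCw_unmask h.1).2 h.2.1
  refine ⟨this, ?_⟩
  rw [← mul_one (sgn _), ← map_one prm, mem_Q0 this, disjoint_iff_mask, mask_unmask h.1, mask_O0]
  exact ⟨h.2.2, one_mem _⟩

theorem cent_Q0 {b : Co0} (h : b ∈ C[Q0]) : b = 1 ∨ b = zz ∨ b = ng ∨ b = ng * zz := by
  have h1 : ∀ p ∈ OC, b • e8 p = e8 p ∨ b • e8 p = -e8 p := fun p hp => e8_of_comm fun q hq => by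
    have : ∃ m ∈ cs, (m.testBit (idx p) = true ↔ ¬ m.testBit (idx q) = true) := by
      rw [OC, mem_unmask] at hp
      revert p q; decide +kernel
    obtain ⟨m, hm, a⟩ := this
    exact ⟨_, (cs_ok m hm).1, by rwa [mem_unmask, mem_unmask], h _ (cs_ok m hm).2⟩
  obtain ⟨c, σ, hc, rfl⟩ := mem_Nm.1 (mem_Nm_of_e8 (h1 (some 4) (mem_unmask.2 (by decide +kernel))))
  have h2 : σ = 1 := by
    have := fix_step σ.2 (F := 8241104) (F' := 16777215)
      (os := [4845570, 6053905, 13938692, 10170384, 7221256]) (by norm_num) (by decide +kernel)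
      fun p hp => by
        have := h1 p hp
        rw [sgn_prm_e8 hc] at this
        split_ifs at this <;> rcases this with a | a
        exacts [absurd a.symm (e8_ne_neg _ _), e8_inj (neg_injective a), e8_inj a,
          absurd a (e8_ne_neg _ _)]
    exact Subtype.ext (Equiv.ext fun p => this p (by rw [← mask_univ, unmask_mask]; exact mem_univ p))
  subst h2
  rw [map_one, mul_one] at h ⊢
  have h3 : ∀ p ∈ cO_l6.gens, act p (mask c) = mask c := fun p hp => by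
    have a : isM24 p = true ∧ fixesAll 8536111 p = true := by revert p; decide +kernel
    have b : prm (elt p) ∈ Q0 := by
      rw [← one_mul (prm _), ← sgn_empty, mem_Q0 isCw_empty]
      exact ⟨disjoint_empty_left _, mem_pstab.2 (fixesAll_iff.1 (by
        rw [mask_O0, ← mcode, mcode_elt a.1]; exact a.2))⟩
    have e := h _ b
    rw [prm_mul_sgn _ hc, mul_left_inj] at e
    rw [← mcode_elt a.1, mcode, act_mask, sgn_inj (hc.smul (elt p).2) hc e]
  have := forall_cw (f := fun m => bor (!lall cO_l6.gens fun p => Nat.beq (act p m) m)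
    (lany [0, 8241104, 16777215, 8536111] (Nat.beq m))) (by decide +kernel) c hc
  rw [(lall_iff _ _).2 fun p hp => Nat.beq_eq ▸ h3 p hp] at this
  simp only [Bool.not_true, bor_eq, Bool.false_or, lany_iff, Nat.beq_eq, List.mem_cons,
    List.not_mem_nil, or_false, exists_eq_right'] at this
  rcases this with a | a | a | a <;> rw [eq_unmask a]
  · exact Or.inl (unmask_zero ▸ sgn_empty)
  · exact Or.inr (Or.inl rfl)
  · exact Or.inr (Or.inr (Or.inl (by rw [← mask_univ, unmask_mask]; rfl)))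
  · refine Or.inr (Or.inr (Or.inr ?_))
    rw [ng, zz, ← sgn_symmDiff isCw_univ cwOC, ← unmask_mask univ, mask_univ, OC,
      ← unmask_xor (by norm_num) (by norm_num)]
    rfl

end Cfsg.Agent.CoS
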