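import Cfsg.Agent.CoS.ZD
import Cfsg.Agent.CoS.Mul
import Cfsg.Agent.M24.OctOrb

/-! # Checks of the tables -/

set_option autoImplicit false
set_option maxHeartbeats 4000000

namespace Cfsg.Agent.CoS

open Cfsg.Agent.M24 Cfsg.Agent.Leech

theorem all_split {l₁ l₂ l₃ l₄ : T} {k₁ a₁ b₁ k₂ a₂ b₂ k₃ a₃ b₃ : ℕ} {f : ℕ → ℕ → ℕ → Bool}
    (h₁ : l₁.all f = true) (h₂ : l₂.all f = true) (h₃ : l₃.all f = true) (h₄ : l₄.all f = true)
    (h₅ : (T.node (.node .nil k₁ a₁ b₁ .nil) k₂ a₂ b₂ (.node .nil k₃ a₃ b₃ .nil)).all f = true) :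
    (T.node (.node l₁ k₁ a₁ b₁ l₂) k₂ a₂ b₂ (.node l₃ k₃ a₃ b₃ l₄)).all f = true := by
  have e : ∀ l k a b r, (T.node l k a b r).all f = band (f k a b) (band (l.all f) (r.all f)) :=
    fun _ _ _ _ _ => rfl
  simp only [e, band_eq, Bool.and_eq_true] at h₅ ⊢
  exact ⟨h₅.1, ⟨h₅.2.1.1, h₁, h₂⟩, h₅.2.2.1, h₃, h₄⟩

theorem sum_split (l₁ l₂ l₃ l₄ : T) (k₁ a₁ b₁ k₂ a₂ b₂ k₃ a₃ b₃ : ℕ) (f : ℕ → ℕ → ℕ → ℕ) :
    (T.node (.node l₁ k₁ a₁ b₁ l₂) k₂ a₂ b₂ (.node l₃ k₃ a₃ b₃ l₄)).sum f =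
      l₁.sum f + l₂.sum f + l₃.sum f + l₄.sum f +
      (T.node (.node .nil k₁ a₁ b₁ .nil) k₂ a₂ b₂ (.node .nil k₃ a₃ b₃ .nil)).sum f := by
  have e : ∀ l k a b r, (T.node l k a b r).sum f = f k a b + (l.sum f + r.sum f) :=
    fun _ _ _ _ _ => rfl
  have e0 : T.nil.sum f = 0 := rfl
  simp only [e, e0]
  omega

theorem tQ_all {f : ℕ → ℕ → ℕ → Bool} (h₁ : tQ0.all f = true) (h₂ : tQ1.all f = true)
    (h₃ : tQ2.all f = true) (h₄ : tQ3.all f = true) (h₅ : tQ4.all f = true) : tQ.all f = true := by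
  unfold tQ4 at h₅
  unfold tQ
  exact all_split h₁ h₂ h₃ h₄ h₅

theorem tQ_count {f : ℕ → Bool} {n₁ n₂ n₃ n₄ n₅ : ℕ} (h₁ : tQ0.count f = n₁) (h₂ : tQ1.count f = n₂)
    (h₃ : tQ2.count f = n₃) (h₄ : tQ3.count f = n₄) (h₅ : tQ4.count f = n₅) :
    tQ.count f = n₁ + n₂ + n₃ + n₄ + n₅ := by
  rw [← h₁, ← h₂, ← h₃, ← h₄, ← h₅]
  unfold T.count tQ tQ4
  exact sum_split ..

theorem tQ_srt : tQ.srt 0 (2 ^ 576) = true := by decide +kernel

theorem tQ_conn : connChk mulf lQ onem tQ = true :=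
  tQ_all (by decide +kernel) (by decide +kernel) (by decide +kernel) (by decide +kernel)
    (by decide +kernel)

theorem tQ_size : tQ.size = 512 := by decide +kernel

theorem sq_chk : (tQ.all fun A _ _ =>
    force (mulf A A) fun B => bor (Nat.beq B onem) (Nat.beq B mZ)) = true :=
  tQ_all (by decide +kernel) (by decide +kernel) (by decide +kernel) (by decide +kernel)
    (by decide +kernel)

theorem lQ_chk : lall2 lQ (fun s a => force (Nat.land a 0xffffff) fun m =>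
    force (Nat.shiftRight a 24) fun p => band (band (band (Nat.beq (syn m) 0)
      (Nat.beq (Nat.land m 8536111) 0)) (band (isM24 p) (fixesAll 8536111 p)))
        (Nat.beq (matSP m p) s)) wQ = true := by decide +kernel

end Cfsg.Agent.CoS
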